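import Mathlib
import Cfsg.Prelude.Def_Blocks
import Cfsg.Agent.S0908
import Cfsg.Agent.S0906
import Cfsg.Agent.S0911
import Cfsg.Agent.S0913
import Cfsg.Agent.S0135
import Cfsg.Agent.Lib.Helper78.Osima
import Cfsg.Agent.Lib.Helper80.Eigen

/-!
# Numerical min-max: which classes matter for a block of defect `d` (helper75)
-/

set_option autoImplicit false
set_option linter.unusedSectionVars false

namespace Cfsg.Agent.Lib.Helper75

open Cfsg Cfsg.Agent.Lib.Helper78 Cfsg.Agent.Lib.Helper74
open scoped ComplexConjugate

variable {G : Type*} [Group G] [Finite G] {M : Ideal AlgInt} {p : ℕ}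

theorem irr_charDegree_dvd (χ : IrrCharacter G) : charDegree (χ : G → ℂ) ∣ Nat.card G := by
  obtain ⟨χ, n, ρ, hρ, rfl⟩ := χ
  have := hρ
  have h := Cfsg.Agent.S0135.result ρ
  simp only [charDegree_rep]
  simpa using h

/-- a block contains a character of height zero: `ν_p(χ(1)) + d = a`. -/
theorem exists_height_zero (hM : IsPModular p M) {B : Set (IrrCharacter G)} (hB : IsPBlock M B) :
    ∃ χ ∈ B, (charDegree (χ : G → ℂ)).factorization p + blockDefect p B =
      (Nat.card G).factorization p := by
  have hMp := pmod_isPrime hM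
  have hne : ((fun χ : IrrCharacter G => (charDegree (χ : G → ℂ)).factorization p) '' B).Nonempty :=
    (Cfsg.Agent.Lib.Helper78.IsPBlock.nonempty hMp hB).image _
  obtain ⟨χ0, hχ0B, hχ0⟩ := Nat.sInf_mem hne
  refine ⟨χ0, hχ0B, ?_⟩
  have hpos : 0 < charDegree (χ0 : G → ℂ) := irr_charDegree_pos χ0
  have hle : (charDegree (χ0 : G → ℂ)).factorization p ≤ (Nat.card G).factorization p :=
    (Nat.factorization_le_iff_dvd hpos.ne' Nat.card_pos.ne').2 (irr_charDegree_dvd χ0) p
  unfold blockDefect
  simp only at hχ0
  rw [← hχ0]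
  omega

theorem factorization_index_centralizer (p : ℕ) (x : G) :
    ((Subgroup.centralizer ({x} : Set G)).index).factorization p +
      (Nat.card (Subgroup.centralizer ({x} : Set G))).factorization p = (Nat.card G).factorization p := by
  have h := Subgroup.index_mul_card (Subgroup.centralizer ({x} : Set G))
  rw [← h, Nat.factorization_mul (Subgroup.index_ne_zero_of_finite) Nat.card_pos.ne']
  rfl

/-- If the class of `x` has defect smaller than the defect of `B`, the central characters of `B`
vanish modulo the local ideal at `x`. -/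
theorem memLocalIdeal_centralChar_of_lt (hM : IsPModular p M) {B : Set (IrrCharacter G)}
    (hB : IsPBlock M B) {χ : IrrCharacter G} (hχ : χ ∈ B) {x : G}
    (hx : (Nat.card (Subgroup.centralizer ({x} : Set G))).factorization p < blockDefect p B) :
    MemLocalIdeal M (centralChar (χ : G → ℂ) x) := by
  have := Fintype.ofFinite G
  have hMp := pmod_isPrime hM
  obtain ⟨χ', hχ', hh⟩ := exists_height_zero hM hB
  have hidx := factorization_index_centralizer p x
  have h1 : MemLocalIdeal M (((Subgroup.centralizer ({x} : Set G)).index : ℂ) /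
      (charDegree (χ' : G → ℂ) : ℂ)) :=
    memLocalIdeal_natCast_div hM (irr_charDegree_pos χ').ne' (by omega)
  have h2 : MemLocalIdeal M (centralChar (χ' : G → ℂ) x) := by
    unfold centralChar
    rw [irr_one_eq χ']
    have : ((Subgroup.centralizer ({x} : Set G)).index : ℂ) * (χ' : G → ℂ) x /
        (charDegree (χ' : G → ℂ) : ℂ) = ((Subgroup.centralizer ({x} : Set G)).index : ℂ) /
        (charDegree (χ' : G → ℂ) : ℂ) * (χ' : G → ℂ) x := by ring
    rw [this]
    apply MemLocalIdeal.mul_right hMp h1
    obtain ⟨χ'', n, ρ, hρ, rfl⟩ := χ'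
    exact memLocalRing_of_isIntegral hMp (Cfsg.Agent.Lib.Helper80.isIntegral_char ρ x)
  have h3 := Cfsg.Agent.Lib.Helper78.IsPBlock.sameBlock hMp hB hχ hχ' x
  have := MemLocalIdeal.add hMp h3 h2
  simpa using this

/-- If the class of `x` has defect larger than the defect of `B`, the coefficient of the block
idempotent at `x` lies in the local ideal. -/
theorem memLocalIdeal_blockCoeff_of_gt (hM : IsPModular p M) {B : Set (IrrCharacter G)}
    (hB : IsPBlock M B) {x : G}
    (hx : blockDefect p B < (Nat.card (Subgroup.centralizer ({x} : Set G))).factorization p) :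
    MemLocalIdeal M (blockCoeff B x) := by
  have : Fact p.Prime := ⟨hM.1⟩
  by_contra hcon
  obtain ⟨g, hg⟩ := Cfsg.Agent.S0906.result p M hM B hB
  obtain ⟨D⟩ : Nonempty (Sylow p (Subgroup.centralizer ({g} : Set G))) := inferInstance
  have hD : IsDefectGroup p M B ((D : Subgroup (Subgroup.centralizer ({g} : Set G))).map
      (Subgroup.centralizer ({g} : Set G)).subtype) := ⟨g, hg, D, rfl⟩
  have hcard := Cfsg.Agent.S0908.result p M hM B hB _ hD
  obtain ⟨y, Q, hQ⟩ := (Cfsg.Agent.S0911.result p M hM B hB g hg D x).1
    (Cfsg.Agent.S0913.result p M hM B hB x) hcon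
  have h1 := Subgroup.card_le_of_le hQ
  rw [Subgroup.card_map_of_injective (Subgroup.subtype_injective _),
    Subgroup.card_map_of_injective (MulAut.conj y).injective, hcard,
    Sylow.card_eq_multiplicity] at h1
  have := (Nat.pow_le_pow_iff_right hM.1.one_lt).1 h1
  omega

end Cfsg.Agent.Lib.Helper75
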