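import Mathlib
import Cfsg.Prelude.Def_Blocks
import Cfsg.Agent.Lib.Helper75.DefectNum
import Cfsg.Agent.Lib.Helper75.RegularBlock
import Cfsg.Agent.Lib.Helper77.ResField

/-!
# Counting blocks against `p`-regular classes, defect by defect (helper75)
-/

set_option autoImplicit false
set_option linter.unusedSectionVars false

namespace Cfsg.Agent.Lib.Helper75

open Cfsg Cfsg.Agent.Lib.Helper78 Cfsg.Agent.Lib.Helper74 Cfsg.Agent.Lib.Helper77
open scoped ComplexConjugate

variable {G : Type*} [Group G] [Finite G] {M : Ideal AlgInt} {p : ℕ}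

/-- A matrix with a right inverse over a field has at most as many rows as columns. -/
theorem card_le_of_mul_eq_one {F : Type*} [Field F] {m n : Type*} [Fintype m] [Fintype n]
    [DecidableEq m] [DecidableEq n] (A : Matrix m n F) (W : Matrix n m F) (h : A * W = 1) :
    Fintype.card m ≤ Fintype.card n := by
  have hs : Function.Surjective (Matrix.mulVecLin A) := by
    intro v
    refine ⟨W.mulVec v, ?_⟩
    rw [Matrix.mulVecLin_apply, Matrix.mulVec_mulVec, h, Matrix.one_mulVec]
  exact card_le_of_surjective F _ hs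

/-- The centralizer order is a class invariant. -/
theorem card_centralizer_of_isConj {x y : G} (h : IsConj x y) :
    Nat.card (Subgroup.centralizer ({x} : Set G)) = Nat.card (Subgroup.centralizer ({y} : Set G)) := by
  obtain ⟨c, hc⟩ := isConj_iff.1 h
  subst hc
  refine Nat.card_congr ⟨fun z => ⟨c * z * c⁻¹, ?_⟩, fun z => ⟨c⁻¹ * z * c, ?_⟩, ?_, ?_⟩
  · have := z.2
    rw [Subgroup.mem_centralizer_singleton_iff] at this ⊢
    calc c * z * c⁻¹ * (c * x * c⁻¹) = c * (z * x) * c⁻¹ := by group
      _ = c * (x * z) * c⁻¹ := by rw [this]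
      _ = _ := by group
  · have := z.2
    rw [Subgroup.mem_centralizer_singleton_iff] at this ⊢
    calc c⁻¹ * z * c * x = c⁻¹ * (z * (c * x * c⁻¹)) * c := by group
      _ = c⁻¹ * ((c * x * c⁻¹) * z) * c := by rw [this]
      _ = _ := by group
  · intro z; ext; simp [mul_assoc]
  · intro z; ext; simp [mul_assoc]

/-- For an order-convex set `S` of defects, there are at most as many blocks with defect in `S`
as `p`-regular classes with defect in `S`. -/
theorem card_blocks_le_card_regular_classes (hM : IsPModular p M) (S : ℕ → Prop)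
    (hS : ∀ a b c, S a → S c → a ≤ b → b ≤ c → S b) :
    Nat.card {B : Set (IrrCharacter G) // IsPBlock M B ∧ S (blockDefect p B)} ≤
    Nat.card {C : ConjClasses G // ∃ g : G, ConjClasses.mk g = C ∧ ¬ p ∣ orderOf g ∧
      S ((Nat.card (Subgroup.centralizer ({g} : Set G))).factorization p)} := by
  classical
  have := Fintype.ofFinite G
  have hMp : M.IsPrime := pmod_isPrime hM
  have := Fintype.ofFinite (ConjClasses G)
  have := Fintype.ofFinite {B : Set (IrrCharacter G) // IsPBlock M B ∧ S (blockDefect p B)}
  rw [Nat.card_eq_fintype_card, Nat.card_eq_fintype_card]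
  have hne : ∀ B : {B : Set (IrrCharacter G) // IsPBlock M B ∧ S (blockDefect p B)},
      ∃ χ : IrrCharacter G, χ ∈ B.1 := fun B =>
    Cfsg.Agent.Lib.Helper78.IsPBlock.nonempty hMp B.2.1
  choose χ hχ using hne
  refine card_le_of_mul_eq_one (F := ResF M)
    (Matrix.of fun B C => red M (blockCoeff B.1 (Quotient.out C.1)))
    (Matrix.of fun C B => red M (centralChar (χ B : G → ℂ) (Quotient.out C.1))) ?_
  ext B B'
  rw [Matrix.mul_apply]
  simp only [Matrix.of_apply]
  have ha : ∀ x : G, MemLocalRing M (blockCoeff B.1 x) := fun x =>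
    memLocalRing_blockCoeff hMp B.2.1 x
  have hw : ∀ x : G, MemLocalRing M (centralChar (χ B' : G → ℂ) x) := fun x =>
    memLocalRing_centralChar hMp (χ B') x
  have h1 : ∀ C : {C : ConjClasses G // ∃ g : G, ConjClasses.mk g = C ∧ ¬ p ∣ orderOf g ∧
      S ((Nat.card (Subgroup.centralizer ({g} : Set G))).factorization p)},
      red M (blockCoeff B.1 (Quotient.out C.1)) *
        red M (centralChar (χ B' : G → ℂ) (Quotient.out C.1)) =
      red M (blockCoeff B.1 (Quotient.out C.1) *
        centralChar (χ B' : G → ℂ) (Quotient.out C.1)) := fun C =>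
    (red_mul (ha _) (hw _)).symm
  rw [Finset.sum_congr rfl fun C _ => h1 C, ← red_sum _ _ fun C _ => MemLocalRing.mul hMp (ha _) (hw _)]
  have htot := omega_eq_sum_conjClasses (irr_isClassFunction (χ B'))
    (blockCoeff_isClassFunction B.1)
  rw [omega_blockCoeff] at htot
  have hsplit := Fintype.sum_subtype_add_sum_subtype
    (fun C : ConjClasses G => ∃ g : G, ConjClasses.mk g = C ∧ ¬ p ∣ orderOf g ∧
      S ((Nat.card (Subgroup.centralizer ({g} : Set G))).factorization p))
    (fun C => blockCoeff B.1 (Quotient.out C) * centralChar (χ B' : G → ℂ) (Quotient.out C))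
  rw [← htot] at hsplit
  have hrest : MemLocalIdeal M (∑ C : {C : ConjClasses G // ¬ ∃ g : G, ConjClasses.mk g = C ∧
      ¬ p ∣ orderOf g ∧ S ((Nat.card (Subgroup.centralizer ({g} : Set G))).factorization p)},
      blockCoeff B.1 (Quotient.out C.1) * centralChar (χ B' : G → ℂ) (Quotient.out C.1)) := by
    refine MemLocalIdeal.sum hMp _ _ fun C _ => ?_
    have hC := C.2
    by_cases hp : p ∣ orderOf (Quotient.out C.1)
    · rw [blockCoeff_eq_zero_of_singular hM B.2.1 hp, zero_mul]
      exact memLocalIdeal_zero hMp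
    · have hnS : ¬ S ((Nat.card (Subgroup.centralizer
          ({Quotient.out C.1} : Set G))).factorization p) := fun h =>
        hC ⟨Quotient.out C.1, Quotient.out_eq _, hp, h⟩
      rcases lt_or_ge ((Nat.card (Subgroup.centralizer
          ({Quotient.out C.1} : Set G))).factorization p) (blockDefect p B'.1) with h | h
      · exact MemLocalIdeal.mul_left hMp (ha _)
          (memLocalIdeal_centralChar_of_lt hM B'.2.1 (hχ B') h)
      · rcases lt_or_ge (blockDefect p B.1) ((Nat.card (Subgroup.centralizer
          ({Quotient.out C.1} : Set G))).factorization p) with h' | h'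
        · exact MemLocalIdeal.mul_right hMp (memLocalIdeal_blockCoeff_of_gt hM B.2.1 h') (hw _)
        · exact absurd (hS _ _ _ B'.2.2 B.2.2 h h') hnS
  have hδ : (1 : Matrix _ _ (ResF M)) B B' = red M (if χ B' ∈ B.1 then 1 else 0) := by
    by_cases hBB : B = B'
    · subst hBB
      rw [Matrix.one_apply_eq, if_pos (hχ B), red_one]
    · rw [Matrix.one_apply_ne hBB, if_neg, red_zero]
      intro hmem
      exact hBB (Subtype.ext (IsPBlock.eq_of_mem_mem hMp B.2.1 B'.2.1 hmem (hχ B')))
  rw [hδ, red_eq_iff (MemLocalRing.sum hMp _ _ fun C _ => MemLocalRing.mul hMp (ha _) (hw _))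
    (by split_ifs; exacts [memLocalRing_one hMp, memLocalRing_zero hMp]), ← hsplit]
  have := MemLocalIdeal.neg hrest
  convert this using 1
  ring

end Cfsg.Agent.Lib.Helper75
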