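import Mathlib
import Cfsg.Prelude.Def_Characters
import Cfsg.Agent.Lib.Helper3.Brauer4

/-!
# Brauer's characterization with algebraic-integer coefficients (helper75)
-/

set_option autoImplicit false

namespace Cfsg.Agent.Lib.Helper75

open Cfsg Cfsg.Agent.Lib.Helper3
open scoped ComplexConjugate

variable {G : Type*} [Group G] [Fintype G]

/-- If all inner products of the restrictions of the class function `ϑ` to elementary subgroups
with characters are algebraic integers, then so are the inner products of `ϑ` with the characters
of `G`. -/
theorem isIntegral_classInner_of_elementary {ϑ : G → ℂ} (hϑ : IsClassFunction G ϑ)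
    (hE : ∀ (E : Subgroup G) (p : ℕ), p.Prime → IsElementary p E →
      ∀ [Fintype E] (ψ : E → ℂ), IsCharacter E ψ →
        IsIntegral ℤ (classInner (fun e : E => ϑ e) ψ))
    {χ : G → ℂ} (hχ : IsCharacter G χ) : IsIntegral ℤ (classInner ϑ χ) := by
  classical
  have key : ∀ F : G → ℂ,
      F ∈ indSpan (fun E : Subgroup G => ∃ p : ℕ, p.Prime ∧ IsElementary p E) →
      IsIntegral ℤ (classInner (F * ϑ) χ) := by
    intro F hF
    refine indSpan_induction (P := fun F => IsIntegral ℤ (classInner (F * ϑ) χ)) ?_ ?_ ?_ ?_ hF
    · rintro E φ ⟨p, hp, hEp⟩ hφ
      have := Fintype.ofFinite E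
      rw [← Helper15.indFun_mul_restrict E φ hϑ,
        Helper15.classInner_indFun_left E _ χ (IsCharacter.isClassFunction hχ)]
      have h1 := hE E p hp hEp _ (IsCharacter.mul (IsCharacter.conj hφ) (IsCharacter.restrict hχ E))
      convert h1 using 1
      unfold classInner
      congr 1
      refine Finset.sum_congr rfl fun e _ => ?_
      simp only [Pi.mul_apply, map_mul, Complex.conj_conj]
      ring
    · simp [classInner]
      exact isIntegral_zero
    · intro a b ha hb
      have : classInner ((a + b) * ϑ) χ = classInner (a * ϑ) χ + classInner (b * ϑ) χ := by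
        unfold classInner
        rw [← mul_add, ← Finset.sum_add_distrib]
        congr 1
        refine Finset.sum_congr rfl fun e _ => ?_
        simp only [Pi.mul_apply, Pi.add_apply]
        ring
      rw [this]
      exact ha.add hb
    · intro a ha
      have : classInner ((-a) * ϑ) χ = - classInner (a * ϑ) χ := by
        unfold classInner
        rw [← mul_neg, ← Finset.sum_neg_distrib]
        congr 1
        refine Finset.sum_congr rfl fun e _ => ?_
        simp only [Pi.mul_apply, Pi.neg_apply]
        ring
      rw [this]
      exact ha.neg
  have := key _ one_mem_indSpan_elementary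
  have h2 : (fun _ : G => (1 : ℂ)) * ϑ = ϑ := by
    funext g; simp
  rwa [h2] at this

end Cfsg.Agent.Lib.Helper75
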