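import Mathlib
import Cfsg.Prelude.Def_Characters
import Cfsg.Agent.Lib.Helper75.HallStar

/-!
# The Brauer–Suzuki extension map is an isometry (helper75)
-/

set_option autoImplicit false

namespace Cfsg.Agent.Lib.Helper75

open Cfsg Cfsg.Agent.Lib.Helper3
open scoped ComplexConjugate

variable {G : Type*} [Group G]

/-- number of `x` whose `π`-part `x ^ k` is conjugate to `a`. -/
noncomputable def bsCnt (H : Subgroup G) (k : ℕ) (a : H) : ℕ :=
  Nat.card {x : G // IsConj (x ^ k) (a : G)}

/-- number of elements of `H` that are `G`-conjugate to `a`. -/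
noncomputable def bsCls (H : Subgroup G) (a : H) : ℕ :=
  Nat.card {b : H // IsConj (b : G) (a : G)}

theorem bsCls_pos [Finite G] (H : Subgroup G) (a : H) : 0 < bsCls H a := by
  have : Nonempty {b : H // IsConj (b : G) (a : G)} := ⟨⟨a, IsConj.refl _⟩⟩
  exact Nat.card_pos

theorem bsCls_eq_of_isConj (H : Subgroup G) {a b : H} (hab : IsConj (a : G) (b : G)) :
    bsCls H a = bsCls H b := by
  unfold bsCls
  apply Nat.card_congr
  exact Equiv.subtypeEquivRight fun c => ⟨fun h => h.trans hab, fun h => h.trans hab.symm⟩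

theorem bsCnt_eq_of_isConj (H : Subgroup G) (k : ℕ) {a b : H} (hab : IsConj (a : G) (b : G)) :
    bsCnt H k a = bsCnt H k b := by
  unfold bsCnt
  apply Nat.card_congr
  exact Equiv.subtypeEquivRight fun c => ⟨fun h => h.trans hab, fun h => h.trans hab.symm⟩

namespace BSHyp

variable {H : Subgroup G} {k : ℕ}

theorem bsCnt_pos [Finite G] (h : BSHyp H k) (a : H) : 0 < bsCnt H k a := by
  have : Nonempty {x : G // IsConj (x ^ k) (a : G)} :=
    ⟨⟨a, by rw [h.pow_eq_self_of_mem a.2]⟩⟩
  exact Nat.card_pos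

theorem sum_tau [Fintype G] [Fintype H] (h : BSHyp H k) {F : H → ℂ} (hF : IsClassFunction H F) :
    ∑ x : G, F (h.tau x) = ∑ a : H, F a * ((bsCnt H k a : ℂ) / bsCls H a) := by
  classical
  have h1 : ∀ x : G, F (h.tau x) =
      ∑ a : H, if IsConj (x ^ k) (a : G) then F a / bsCls H a else 0 := by
    intro x
    have h2 : ∀ a : H, (if IsConj (x ^ k) (a : G) then F a / bsCls H a else 0) =
        if IsConj (a : G) (h.tau x : G) then F (h.tau x) / bsCls H (h.tau x) else 0 := by
      intro a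
      by_cases hc : IsConj (x ^ k) (a : G)
      · have hc' : IsConj (a : G) (h.tau x : G) := hc.symm.trans (h.isConj_tau x)
        rw [if_pos hc, if_pos hc', h.apply_eq_of_isConj hF hc', bsCls_eq_of_isConj H hc']
      · have hc' : ¬ IsConj (a : G) (h.tau x : G) := fun hh => hc ((h.isConj_tau x).trans hh.symm)
        rw [if_neg hc, if_neg hc']
    simp only [h2]
    rw [← Finset.sum_filter, Finset.sum_const, nsmul_eq_mul]
    have h3 : (Finset.univ.filter fun a : H => IsConj (a : G) (h.tau x : G)).card =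
        bsCls H (h.tau x) := by
      rw [bsCls, Nat.card_eq_fintype_card, Fintype.card_subtype]
    rw [h3]
    have h4 : (bsCls H (h.tau x) : ℂ) ≠ 0 := by exact_mod_cast (bsCls_pos H _).ne'
    field_simp
  simp only [h1]
  rw [Finset.sum_comm]
  refine Finset.sum_congr rfl fun a _ => ?_
  rw [← Finset.sum_filter, Finset.sum_const, nsmul_eq_mul]
  have h3 : (Finset.univ.filter fun x : G => IsConj (x ^ k) (a : G)).card = bsCnt H k a := by
    rw [bsCnt, Nat.card_eq_fintype_card, Fintype.card_subtype]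
  rw [h3]; ring

/-- The weight function. -/
noncomputable def wt (H : Subgroup G) (k : ℕ) (a : H) : ℂ :=
  ((Nat.card H * bsCnt H k a : ℕ) : ℂ) / ((Nat.card G * bsCls H a : ℕ) : ℂ)

theorem wt_eq [Finite G] (a : H) : wt H k a =
    (Nat.card H : ℂ) * (Nat.card G : ℂ)⁻¹ * ((bsCnt H k a : ℂ) / bsCls H a) := by
  unfold wt
  push_cast
  have h4 : (bsCls H a : ℂ) ≠ 0 := by exact_mod_cast (bsCls_pos H _).ne'
  have h5 : (Nat.card G : ℂ) ≠ 0 := by exact_mod_cast Nat.card_pos.ne'
  field_simp

theorem wt_isClassFunction : IsClassFunction H (wt H k) := by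
  intro a c
  have hc : IsConj ((c * a * c⁻¹ : H) : G) (a : G) := by
    rw [isConj_comm, isConj_iff]
    exact ⟨c, by simp⟩
  unfold wt
  rw [bsCnt_eq_of_isConj H k hc, bsCls_eq_of_isConj H hc]

theorem wt_gen [Fintype G] [Fintype H] (h : BSHyp H k) : IsGeneralizedCharacter H (wt H k) := by
  classical
  have := Fintype.ofFinite (IrrCharacter H)
  rw [isGeneralizedCharacter_iff]
  refine ⟨wt_isClassFunction, fun χ => ?_⟩
  have hχ : IsCharacter H (fun a => conj ((χ : H → ℂ) a)) :=
    IsCharacter.conj (IsIrrCharacter.isCharacter χ.2)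
  obtain ⟨n, hn⟩ := Cfsg.Agent.Lib.Helper26.gen_inner_int (h.star_gen hχ)
    (Cfsg.Agent.Lib.Helper26.gen_of_char (isCharacter_one (G := G)))
  refine ⟨n, ?_⟩
  rw [← hn]
  unfold classInner
  have h1 : ∑ g : G, h.star (fun a => conj ((χ : H → ℂ) a)) g * conj ((1 : G → ℂ) g) =
      ∑ a : H, conj ((χ : H → ℂ) a) * ((bsCnt H k a : ℂ) / bsCls H a) := by
    rw [← h.sum_tau (IsCharacter.isClassFunction hχ)]
    refine Finset.sum_congr rfl fun x _ => ?_
    simp [star]
  rw [h1, Finset.mul_sum, Finset.mul_sum]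
  refine Finset.sum_congr rfl fun a _ => ?_
  rw [wt_eq]
  have h5 : (Nat.card H : ℂ) ≠ 0 := by exact_mod_cast Nat.card_pos.ne'
  field_simp

theorem card_mul_cls_le [Fintype G] [Fintype H] (h : BSHyp H k) (a : H) :
    Nat.card G * bsCls H a ≤ Nat.card H * bsCnt H k a := by
  obtain ⟨χ, ψ, hχ, hψ, he⟩ := h.wt_gen
  have hint : IsIntegral ℤ (wt H k a) := by
    rw [he]
    exact (IsCharacter.isIntegral hχ a).sub (IsCharacter.isIntegral hψ a)
  have hne : Nat.card G * bsCls H a ≠ 0 :=
    (Nat.mul_pos Nat.card_pos (bsCls_pos H a)).ne'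
  exact Nat.le_of_dvd (Nat.mul_pos Nat.card_pos (h.bsCnt_pos a))
    (nat_dvd_of_isIntegral_div hne hint)

theorem cnt_div_cls [Fintype G] [Fintype H] (h : BSHyp H k) (a : H) :
    (bsCnt H k a : ℚ) / bsCls H a = (Nat.card G : ℚ) / Nat.card H := by
  classical
  have hH : (0 : ℚ) < Nat.card H := by exact_mod_cast Nat.card_pos
  have hsum : ∑ a : H, ((bsCnt H k a : ℚ) / bsCls H a) = Nat.card G := by
    have h1 := h.sum_tau (F := fun _ => 1) (fun _ _ => rfl)
    simp only [Finset.sum_const, Finset.card_univ, nsmul_eq_mul, mul_one, one_mul] at h1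
    have h2 : ((∑ a : H, ((bsCnt H k a : ℚ) / bsCls H a) : ℚ) : ℂ) = ((Nat.card G : ℚ) : ℂ) := by
      push_cast
      rw [← h1, Nat.card_eq_fintype_card]
    exact_mod_cast h2
  have hge : ∀ a : H, 0 ≤ (bsCnt H k a : ℚ) / bsCls H a - (Nat.card G : ℚ) / Nat.card H := by
    intro a
    have hc : (0 : ℚ) < bsCls H a := by exact_mod_cast bsCls_pos H a
    have hle : (Nat.card G : ℚ) * bsCls H a ≤ Nat.card H * bsCnt H k a := by
      exact_mod_cast h.card_mul_cls_le a
    rw [sub_nonneg, div_le_div_iff₀ hH hc]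
    linarith
  have hzero : ∑ a : H, ((bsCnt H k a : ℚ) / bsCls H a - (Nat.card G : ℚ) / Nat.card H) = 0 := by
    rw [Finset.sum_sub_distrib, hsum, Finset.sum_const, Finset.card_univ, nsmul_eq_mul,
      ← Nat.card_eq_fintype_card]
    field_simp
    ring
  have := (Finset.sum_eq_zero_iff_of_nonneg fun a _ => hge a).1 hzero a (Finset.mem_univ a)
  linarith

theorem sum_tau' [Fintype G] [Fintype H] (h : BSHyp H k) {F : H → ℂ} (hF : IsClassFunction H F) :
    ∑ x : G, F (h.tau x) = (Nat.card G : ℂ) / Nat.card H * ∑ a : H, F a := by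
  rw [h.sum_tau hF, Finset.mul_sum]
  refine Finset.sum_congr rfl fun a _ => ?_
  have h1 : (bsCnt H k a : ℂ) / bsCls H a = (Nat.card G : ℂ) / Nat.card H := by
    have := congrArg (fun q : ℚ => (q : ℂ)) (h.cnt_div_cls a)
    push_cast at this
    exact this
  rw [h1]; ring

theorem classInner_star [Fintype G] [Fintype H] (h : BSHyp H k) {θ φ : H → ℂ} (hθ : IsClassFunction H θ)
    (hφ : IsClassFunction H φ) : classInner (h.star θ) (h.star φ) = classInner θ φ := by
  unfold classInner
  have hF : IsClassFunction H (fun a => θ a * conj (φ a)) := by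
    intro a c
    simp only [hθ a c, hφ a c]
  have := h.sum_tau' hF
  unfold star
  rw [this]
  have h5 : (Nat.card H : ℂ) ≠ 0 := by exact_mod_cast Nat.card_pos.ne'
  have h6 : (Nat.card G : ℂ) ≠ 0 := by exact_mod_cast Nat.card_pos.ne'
  field_simp

theorem star_irr [Fintype G] [Fintype H] (h : BSHyp H k) {θ : H → ℂ} (hθ : IsIrrCharacter H θ) :
    IsIrrCharacter G (h.star θ) := by
  have hcf := IsIrrCharacter.isClassFunction hθ
  have hnorm : classInner (h.star θ) (h.star θ) = 1 := by
    rw [h.classInner_star hcf hcf, classInner_irr_self hθ]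
  rcases Cfsg.Agent.Lib.Helper26.gen_norm_one (h.star_gen (IsIrrCharacter.isCharacter hθ)) hnorm
    with h1 | h1
  · exact h1
  · exfalso
    obtain ⟨n, hn, e1⟩ := Cfsg.Agent.Lib.Helper26.irr_degree h1
    obtain ⟨m, hm, e2⟩ := Cfsg.Agent.Lib.Helper26.irr_degree hθ
    rw [Pi.neg_apply, h.star_one hcf, e2] at e1
    have : ((m + n : ℕ) : ℂ) = 0 := by push_cast; rw [← e1]; ring
    have : m + n = 0 := by exact_mod_cast this
    omega

end BSHyp

end Cfsg.Agent.Lib.Helper75
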