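import Mathlib
import Cfsg.Agent.Lib.Helper75.SelfCent

/-!
# Groups with a self-centralizing element of prime order, II (helper75)

Class count `t * |N_G(P) : P| = p - 1`, Burnside's transfer, the commutator subgroup.
-/

set_option autoImplicit false

namespace Cfsg.Agent.Lib.Helper75

open Subgroup
open scoped commutatorElement

variable {G : Type*} [Group G] {p : ℕ} {x : G}

namespace SC

theorem commute_of_mem {u v : G} (hu : u ∈ zpowers x) (hv : v ∈ zpowers x) : u * v = v * u := by
  obtain ⟨i, rfl⟩ := hu
  obtain ⟨j, rfl⟩ := hv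
  exact ((Commute.refl x).zpow_zpow i j)

theorem conj_ne_one {y : G} (hy : y ≠ 1) (g : G) : g * y * g⁻¹ ≠ 1 := by
  intro hh
  apply hy
  have : y = g⁻¹ * (g * y * g⁻¹) * g := by group
  rw [this, hh]; group

theorem card_nonidentity (h : SC p x) :
    Nat.card {y : G // y ∈ zpowers x ∧ y ≠ 1} = p - 1 := by
  classical
  have hfin : Finite (zpowers x) := Nat.finite_of_card_ne_zero (by
    rw [h.card_zpowers]; exact h.prime.ne_zero)
  have := Fintype.ofFinite (zpowers x)
  have e : {y : G // y ∈ zpowers x ∧ y ≠ 1} ≃ {y : zpowers x // ¬ (y = 1)} :=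
    ⟨fun y => ⟨⟨y.1, y.2.1⟩, fun hh => y.2.2 (congrArg Subtype.val hh)⟩,
      fun y => ⟨y.1.1, y.1.2, fun hh => y.2 (Subtype.ext hh)⟩, fun _ => rfl, fun _ => rfl⟩
  rw [Nat.card_congr e, Nat.card_eq_fintype_card, Fintype.card_subtype_compl,
    Fintype.card_subtype_eq, ← Nat.card_eq_fintype_card, h.card_zpowers]

/-- The number `t` of classes of elements of order `p` satisfies `t * |N_G(P) : P| = p - 1`. -/
theorem card_classes_mul_relIndex [Finite G] (h : SC p x) :
    Nat.card {C : ConjClasses G // ∃ g ∈ C.carrier, orderOf g = p} *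
      (zpowers x).relIndex (normalizer (zpowers x : Set G)) = p - 1 := by
  classical
  have hrep : ∀ C : {C : ConjClasses G // ∃ g ∈ C.carrier, orderOf g = p},
      ∃ y : G, y ∈ zpowers x ∧ y ≠ 1 ∧ ConjClasses.mk y = C.1 := by
    rintro ⟨C, g, hg, hgo⟩
    obtain ⟨a, ha⟩ := h.exists_conj_mem hgo
    have hg1 : g ≠ 1 := by
      intro hh
      rw [hh, orderOf_one] at hgo
      exact h.prime.one_lt.ne hgo
    refine ⟨a * g * a⁻¹, ha, conj_ne_one hg1 a, ?_⟩
    rw [ConjClasses.mem_carrier_iff_mk_eq] at hg
    show ConjClasses.mk (a * g * a⁻¹) = C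
    rw [← hg, ConjClasses.mk_eq_mk_iff_isConj, isConj_comm, isConj_iff]
    exact ⟨a, rfl⟩
  choose y hy hy1 hyC using hrep
  rw [← h.card_nonidentity, Subgroup.relIndex, Subgroup.index_eq_card, ← Nat.card_prod]
  refine Nat.card_congr (Equiv.ofBijective (fun Cq => ⟨(Quotient.out Cq.2 : normalizer (zpowers x : Set G)) * y Cq.1 *
    ((Quotient.out Cq.2 : normalizer (zpowers x : Set G)) : G)⁻¹,
    (mem_normalizer_iff.1 (Quotient.out Cq.2 : normalizer (zpowers x : Set G)).2 _).1 (hy Cq.1),
    conj_ne_one (hy1 Cq.1) _⟩) ⟨?_, ?_⟩)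
  · rintro ⟨C, q⟩ ⟨D, q'⟩ hh
    have hh' : ((Quotient.out q : normalizer (zpowers x : Set G)) : G) * y C *
      ((Quotient.out q : normalizer (zpowers x : Set G)) : G)⁻¹ =
      ((Quotient.out q' : normalizer (zpowers x : Set G)) : G) * y D *
      ((Quotient.out q' : normalizer (zpowers x : Set G)) : G)⁻¹ := congrArg Subtype.val hh
    have hCD : C = D := by
      apply Subtype.ext
      rw [← hyC C, ← hyC D, ConjClasses.mk_eq_mk_iff_isConj, isConj_iff]
      refine ⟨((Quotient.out q' : normalizer (zpowers x : Set G)) : G)⁻¹ *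
        ((Quotient.out q : normalizer (zpowers x : Set G)) : G), ?_⟩
      calc _ = ((Quotient.out q' : normalizer (zpowers x : Set G)) : G)⁻¹ *
          (((Quotient.out q : normalizer (zpowers x : Set G)) : G) * y C *
      ((Quotient.out q : normalizer (zpowers x : Set G)) : G)⁻¹) *
        ((Quotient.out q' : normalizer (zpowers x : Set G)) : G) := by group
        _ = _ := by rw [hh']; group
    subst hCD
    have hq : q = q' := by
      rw [← Quotient.out_eq q, ← Quotient.out_eq q']
      apply Eq.symm
      apply QuotientGroup.eq.2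
      rw [mem_subgroupOf]
      show ((Quotient.out q' : normalizer (zpowers x : Set G)) : G)⁻¹ *
        ((Quotient.out q : normalizer (zpowers x : Set G)) : G) ∈ zpowers x
      have key : ((Quotient.out q' : normalizer (zpowers x : Set G)) : G)⁻¹ *
        ((Quotient.out q : normalizer (zpowers x : Set G)) : G) ∈ zpowers (y C) := by
        rw [(h.of_mem (hy C) (hy1 C)).mem_iff]
        calc _ = ((Quotient.out q' : normalizer (zpowers x : Set G)) : G)⁻¹ *
            (((Quotient.out q : normalizer (zpowers x : Set G)) : G) * y C *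
        ((Quotient.out q : normalizer (zpowers x : Set G)) : G)⁻¹) *
          ((Quotient.out q : normalizer (zpowers x : Set G)) : G) := by group
          _ = _ := by rw [hh']; group
      rwa [h.zpowers_eq (hy C) (hy1 C)] at key
    rw [hq]
  · rintro ⟨z, hz, hz1⟩
    have hzo := h.orderOf_of_mem hz hz1
    let C : {C : ConjClasses G // ∃ g ∈ C.carrier, orderOf g = p} :=
      ⟨ConjClasses.mk z, z, ConjClasses.mem_carrier_mk, hzo⟩
    have hconj : IsConj (y C) z := by
      rw [← ConjClasses.mk_eq_mk_iff_isConj, hyC C]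
    obtain ⟨g, hg⟩ := isConj_iff.1 hconj
    have hgN : g ∈ normalizer (zpowers x : Set G) := by
      have h' := h.of_mem (hy C) (hy1 C)
      have := h'.mem_normalizer (g := g) (by rw [hg, h.zpowers_eq (hy C) (hy1 C)]; exact hz)
      rwa [h.zpowers_eq (hy C) (hy1 C)] at this
    obtain ⟨u, hu⟩ := QuotientGroup.mk_out_eq_mul
      ((zpowers x).subgroupOf (normalizer (zpowers x : Set G))) ⟨g, hgN⟩
    refine ⟨(C, QuotientGroup.mk ⟨g, hgN⟩), ?_⟩
    apply Subtype.ext
    show ((Quotient.out (QuotientGroup.mk ⟨g, hgN⟩ : normalizer (zpowers x : Set G) ⧸ _) :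
      normalizer (zpowers x : Set G)) : G) * y C * ((Quotient.out (QuotientGroup.mk ⟨g, hgN⟩ :
      normalizer (zpowers x : Set G) ⧸ _) : normalizer (zpowers x : Set G)) : G)⁻¹ = z
    rw [hu]
    show (g * ((u : normalizer (zpowers x : Set G)) : G)) * y C *
      (g * ((u : normalizer (zpowers x : Set G)) : G))⁻¹ = z
    have hu' : ((u : normalizer (zpowers x : Set G)) : G) ∈ zpowers x := mem_subgroupOf.1 u.2
    have := commute_of_mem hu' (hy C)
    calc _ = g * (((u : normalizer (zpowers x : Set G)) : G) * y C) *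
        ((u : normalizer (zpowers x : Set G)) : G)⁻¹ * g⁻¹ := by group
      _ = g * y C * g⁻¹ := by rw [this]; group
      _ = z := hg

theorem zpowers_le_normalizer : zpowers x ≤ normalizer (zpowers x : Set G) := le_normalizer

theorem relIndex_pos [Finite G] : 0 < (zpowers x).relIndex (normalizer (zpowers x : Set G)) :=
  Nat.pos_of_ne_zero (by unfold Subgroup.relIndex; exact Subgroup.index_ne_zero_of_finite)

/-- `t = p - 1` iff `N_G(P) = P`. -/
theorem card_classes_eq_iff [Finite G] (h : SC p x) :
    Nat.card {C : ConjClasses G // ∃ g ∈ C.carrier, orderOf g = p} = p - 1 ↔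
      normalizer (zpowers x : Set G) = zpowers x := by
  have h1 := h.card_classes_mul_relIndex
  have hp1 : 0 < p - 1 := Nat.sub_pos_of_lt h.prime.one_lt
  constructor
  · intro ht
    rw [ht] at h1
    have h2 : (zpowers x).relIndex (normalizer (zpowers x : Set G)) = 1 :=
      Nat.eq_of_mul_eq_mul_left hp1 (by rw [h1, mul_one])
    exact le_antisymm (Subgroup.relIndex_eq_one.1 h2) zpowers_le_normalizer
  · intro hN
    have h2 : (zpowers x).relIndex (normalizer (zpowers x : Set G)) = 1 :=
      Subgroup.relIndex_eq_one.2 hN.le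
    rwa [h2, mul_one] at h1

theorem card_classes_le [Finite G] (h : SC p x) :
    Nat.card {C : ConjClasses G // ∃ g ∈ C.carrier, orderOf g = p} ≤ p - 1 := by
  rw [← h.card_classes_mul_relIndex]
  exact Nat.le_mul_of_pos_right _ relIndex_pos

/-- Burnside: if `N_G(P) = P` then `p` does not divide `|G'|`. -/
theorem not_dvd_card_commutator [Finite G] (h : SC p x)
    (hN : normalizer (zpowers x : Set G) = zpowers x) : ¬ p ∣ Nat.card (commutator G) := by
  have : Fact p.Prime := ⟨h.prime⟩
  obtain ⟨P, hP⟩ := h.exists_sylow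
  have hPN : normalizer (P : Set G) ≤ centralizer (P : Set G) := by
    rw [← P.coe_coe, hP, hN]
    intro u hu
    rw [mem_centralizer_iff]
    intro v hv
    exact commute_of_mem hv hu
  have h1 := MonoidHom.not_dvd_card_ker_transferSylow P hPN
  have h2 : commutator G ≤ (MonoidHom.transferSylow P hPN).ker := by
    rw [commutator_def, commutator_le]
    intro a _ b _
    rw [MonoidHom.mem_ker, map_commutatorElement, commutatorElement_eq_one_iff_commute]
    apply Subtype.ext
    have ha : ((MonoidHom.transferSylow P hPN a : P) : G) ∈ zpowers x :=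
      hP.le (MonoidHom.transferSylow P hPN a).2
    have hb : ((MonoidHom.transferSylow P hPN b : P) : G) ∈ zpowers x :=
      hP.le (MonoidHom.transferSylow P hPN b).2
    exact commute_of_mem ha hb
  exact fun hd => h1 (hd.trans (Subgroup.card_dvd_of_le h2))

/-- If `p` does not divide `|G'|`, then `|G : G'| = p`. -/
theorem index_commutator_of_not_dvd [Finite G] (h : SC p x)
    (hd : ¬ p ∣ Nat.card (commutator G)) : (commutator G).index = p := by
  have h' := h.quotient (commutator G) hd
  have h1 : Subgroup.centralizer ({(QuotientGroup.mk x : G ⧸ commutator G)} : Set _) = ⊤ := by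
    rw [eq_top_iff]
    intro q _
    rw [mem_centralizer_singleton_iff]
    exact mul_comm (G := Abelianization G) _ _
  rw [h'.cent] at h1
  rw [Subgroup.index_eq_card, ← Subgroup.card_top, ← h1, h'.card_zpowers]

theorem index_commutator_of_normalizer_eq [Finite G] (h : SC p x)
    (hN : normalizer (zpowers x : Set G) = zpowers x) : (commutator G).index = p :=
  h.index_commutator_of_not_dvd (h.not_dvd_card_commutator hN)

/-- If `N_G(P) ≠ P` then `P ≤ G'`. -/
theorem zpowers_le_commutator [Finite G] (h : SC p x)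
    (hN : normalizer (zpowers x : Set G) ≠ zpowers x) : zpowers x ≤ commutator G := by
  have : ¬ normalizer (zpowers x : Set G) ≤ zpowers x := fun hle =>
    hN (le_antisymm hle zpowers_le_normalizer)
  obtain ⟨n, hn, hnx⟩ := SetLike.not_le_iff_exists.1 this
  have h1 : ⁅n, x⁆ ∈ zpowers x := by
    rw [commutatorElement_def]
    exact (zpowers x).mul_mem (conj_mem_of_mem_normalizer hn) ((zpowers x).inv_mem (mem_zpowers x))
  have h2 : ⁅n, x⁆ ≠ 1 := by
    intro hh
    rw [commutatorElement_eq_one_iff_commute] at hh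
    exact hnx (h.mem_iff.2 hh)
  rw [← h.zpowers_eq h1 h2, zpowers_le, commutator_def]
  exact commutator_mem_commutator (mem_top n) (mem_top x)

/-- For a normal subgroup `S ≥ P`, `|G : S|` equals `|N_G(P) : N_S(P)|` and divides
`|N_G(P) : P|`. -/
theorem index_eq_relIndex_normalizer [Finite G] (h : SC p x) (S : Subgroup G) [S.Normal]
    (hS : zpowers x ≤ S) : S.index = S.relIndex (normalizer (zpowers x : Set G)) := by
  rw [← Subgroup.relIndex_top_right, ← h.normalizer_sup_eq_top S hS, Subgroup.relIndex_sup_right]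

theorem index_dvd_relIndex [Finite G] (h : SC p x) (S : Subgroup G) [S.Normal]
    (hS : zpowers x ≤ S) : S.index ∣ (zpowers x).relIndex (normalizer (zpowers x : Set G)) := by
  rw [h.index_eq_relIndex_normalizer S hS]
  exact Subgroup.relIndex_dvd_of_le_left _ hS

end SC

end Cfsg.Agent.Lib.Helper75
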