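import Mathlib
import Cfsg.Agent.Lib.Helper75.SelfCent2

/-!
# Groups with a self-centralizing element of prime order, III (helper75)

Normal `p'`-subgroups lie in `G'`; passage to subgroups; the dichotomy for `G'`.
-/

set_option autoImplicit false

namespace Cfsg.Agent.Lib.Helper75

open Subgroup
open scoped commutatorElement

variable {G : Type*} [Group G] {p : ℕ} {x : G}

namespace SC

/-- A normal `p'`-subgroup is contained in `G'` (it equals `[S, x]`). -/
theorem le_commutator_of_not_dvd [Finite G] (h : SC p x) (S : Subgroup G) [S.Normal]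
    (hS : ¬ p ∣ Nat.card S) : S ≤ commutator G := by
  let φ : S → S := fun u => ⟨(u : G)⁻¹ * (x * u * x⁻¹),
    S.mul_mem (S.inv_mem u.2) (Subgroup.Normal.conj_mem inferInstance _ u.2 x)⟩
  have hinj : Function.Injective φ := by
    intro u v huv
    have h1 : (u : G)⁻¹ * (x * u * x⁻¹) = (v : G)⁻¹ * (x * v * x⁻¹) := congrArg Subtype.val huv
    have h2 : (v : G) * (u : G)⁻¹ = 1 := by
      apply h.eq_one_of_mem_of_comm S hS (S.mul_mem v.2 (S.inv_mem u.2))
      calc (v : G) * (u : G)⁻¹ * x = v * ((u : G)⁻¹ * (x * u * x⁻¹)) * x * (u : G)⁻¹ := by group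
        _ = v * ((v : G)⁻¹ * (x * v * x⁻¹)) * x * (u : G)⁻¹ := by rw [h1]
        _ = _ := by group
    apply Subtype.ext
    exact (mul_inv_eq_one.1 h2).symm
  have hsurj := Finite.injective_iff_surjective.1 hinj
  intro s hs
  obtain ⟨u, hu⟩ := hsurj ⟨s, hs⟩
  have h1 : (u : G)⁻¹ * (x * u * x⁻¹) = s := congrArg Subtype.val hu
  have h2 : s = ⁅(u : G)⁻¹, x⁆ := by
    rw [← h1, commutatorElement_def]; group
  rw [h2, commutator_def]
  exact commutator_mem_commutator (mem_top _) (mem_top _)

theorem mem_zpowers_subtype {H : Subgroup G} (hx : x ∈ H) (u : H) :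
    u ∈ zpowers (⟨x, hx⟩ : H) ↔ (u : G) ∈ zpowers x := by
  constructor
  · rintro ⟨k, rfl⟩
    exact ⟨k, by simp⟩
  · rintro ⟨k, hk⟩
    exact ⟨k, Subtype.ext (by simpa using hk)⟩

/-- The hypothesis passes to subgroups containing `x`. -/
theorem subgroup (h : SC p x) {H : Subgroup G} (hx : x ∈ H) : SC p (⟨x, hx⟩ : H) := by
  refine ⟨h.prime, by rw [Subgroup.orderOf_mk, h.order], ?_⟩
  ext u
  rw [mem_zpowers_subtype, h.mem_iff, mem_centralizer_singleton_iff, Subtype.ext_iff]
  rfl

/-- `N_H(P) = N_G(P) ∩ H`. -/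
theorem mem_normalizer_subtype [Finite G] (h : SC p x) {H : Subgroup G} (hx : x ∈ H) (u : H) :
    u ∈ normalizer (zpowers (⟨x, hx⟩ : H) : Set H) ↔ (u : G) ∈ normalizer (zpowers x : Set G) := by
  constructor
  · intro hu
    apply h.mem_normalizer
    have := conj_mem_of_mem_normalizer hu
    rw [mem_zpowers_subtype] at this
    exact this
  · intro hu
    apply (h.subgroup hx).mem_normalizer
    rw [mem_zpowers_subtype]
    exact conj_mem_of_mem_normalizer hu

theorem card_normalizer_sup [Finite G] (h : SC p x) (S : Subgroup G) [S.Normal]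
    (hS : ¬ p ∣ Nat.card S) :
    Nat.card (normalizer (zpowers x : Set G) ⊔ S : Subgroup G) =
      Nat.card S * Nat.card (normalizer (zpowers x : Set G)) := by
  set N := normalizer (zpowers x : Set G) with hN
  have h1 : Nat.card (N ⊔ S : Subgroup G) = Nat.card S * S.relIndex N := by
    rw [← Subgroup.relIndex_bot_left, ← Subgroup.relIndex_mul_relIndex ⊥ S (N ⊔ S) bot_le le_sup_right,
      Subgroup.relIndex_bot_left, Subgroup.relIndex_sup_right]
  have h2 : S.relIndex N = Nat.card N := by
    rw [← Subgroup.inf_relIndex_right, h.inf_normalizer_eq_bot S hS, Subgroup.relIndex_bot_left]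
  rw [h1, h2]

theorem not_mem_of_not_dvd (h : SC p x) (S : Subgroup G) (hS : ¬ p ∣ Nat.card S) : x ∉ S :=
  fun hx => h.ne_one (h.eq_one_of_mem_of_comm S hS hx rfl)

theorem dvd_card_of_mem (h : SC p x) (S : Subgroup G) (hx : x ∈ S) : p ∣ Nat.card S := by
  by_contra hS
  exact h.not_mem_of_not_dvd S hS hx

/-- If `G` has a normal subgroup of order `|G : N_G(P)|`, then `G'' ≤ S`. -/
theorem derived_two_le [Finite G] (h : SC p x) (S : Subgroup G) [S.Normal]
    (hS : ¬ p ∣ Nat.card S) (hcard : Nat.card S = (normalizer (zpowers x : Set G)).index) :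
    ⁅commutator G, commutator G⁆ ≤ S := by
  have h1 : normalizer (zpowers x : Set G) ⊔ S = ⊤ := by
    apply Subgroup.eq_top_of_card_eq
    rw [h.card_normalizer_sup S hS, hcard, mul_comm, Subgroup.card_mul_index]
  have h2 := h.commutator_le_sup S h1
  have h3 : ⁅zpowers x, zpowers x⁆ = ⊥ := by
    rw [commutator_eq_bot_iff_le_centralizer]
    intro u hu
    rw [mem_centralizer_iff]
    intro v hv
    exact commute_of_mem hv hu
  calc ⁅commutator G, commutator G⁆ ≤ ⁅zpowers x ⊔ S, zpowers x ⊔ S⁆ := commutator_mono h2 h2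
    _ ≤ ⁅zpowers x, zpowers x⁆ ⊔ S := commutator_sup_le _ S
    _ = S := by rw [h3, bot_sup_eq]

/-- Dichotomy for `H = G'` when `P ≤ G'`: either `G'' = G'`, or `N_{G'}(P) = P`. -/
theorem derived_dichotomy [Finite G] (h : SC p x) (hx : x ∈ commutator G) :
    ⁅commutator G, commutator G⁆ = commutator G ∨
      normalizer (zpowers (⟨x, hx⟩ : commutator G) : Set (commutator G)) =
        zpowers (⟨x, hx⟩ : commutator G) := by
  by_cases hN : normalizer (zpowers (⟨x, hx⟩ : commutator G) : Set (commutator G)) =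
        zpowers (⟨x, hx⟩ : commutator G)
  · exact Or.inr hN
  · left
    have h1 := (h.subgroup hx).zpowers_le_commutator hN
    have h2 : x ∈ ⁅commutator G, commutator G⁆ := by
      rw [← map_subtype_commutator]
      exact ⟨⟨x, hx⟩, h1 (mem_zpowers _), rfl⟩
    have h3 := h.commutator_le_of_dvd ⁅commutator G, commutator G⁆ (h.dvd_card_of_mem _ h2)
    exact le_antisymm (commutator_le_left _ _) h3

end SC

end Cfsg.Agent.Lib.Helper75
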