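import Mathlib
import Cfsg.Prelude.Def_Solvable
import Cfsg.Agent.Lib.Helper75.SelfCent3
import Cfsg.Agent.Lib.Lead.Cores

/-!
# Groups with a self-centralizing element of prime order, IV (helper75)

`G' / O_{p'}(G)` is simple.
-/

set_option autoImplicit false

namespace Cfsg.Agent.Lib.Helper75

open Subgroup Cfsg Cfsg.Agent.Lib.Lead
open scoped commutatorElement

variable {G : Type*} [Group G] {p : ℕ} {x : G}

namespace SC

theorem not_dvd_card_pPrimeCore [Finite G] (h : SC p x) : ¬ p ∣ Nat.card (pPrimeCore p G) :=
  (Nat.Prime.coprime_iff_not_dvd h.prime).1 (card_pPrimeCore_coprime p).symm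

theorem pPrimeCore_le_commutator [Finite G] (h : SC p x) : pPrimeCore p G ≤ commutator G :=
  h.le_commutator_of_not_dvd _ h.not_dvd_card_pPrimeCore

theorem commutator_eq_pPrimeCore [Finite G] (h : SC p x)
    (hN : normalizer (zpowers x : Set G) = zpowers x) : commutator G = pPrimeCore p G :=
  le_antisymm (le_pPrimeCore inferInstance
    ((Nat.Prime.coprime_iff_not_dvd h.prime).2 (h.not_dvd_card_commutator hN)).symm)
    h.pPrimeCore_le_commutator

theorem normal_subgroup_commutator [Finite G] (h : SC p x) (hx : x ∈ commutator G)
    (L : Subgroup (commutator G)) (hL : L.Normal) :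
    L ≤ (pPrimeCore p G).subgroupOf (commutator G) ∨ L = ⊤ := by
  have h' := h.subgroup hx
  by_cases hd : p ∣ Nat.card L
  · right
    have hc := h'.commutator_le_of_dvd L hd
    rcases h.derived_dichotomy hx with hd2 | hd2
    · have : commutator (commutator G) = ⊤ := by
        apply Subgroup.map_injective (commutator G).subtype_injective
        rw [map_subtype_commutator, hd2, ← MonoidHom.range_eq_map, Subgroup.range_subtype]
      rw [this] at hc
      exact top_le_iff.1 hc
    · have hi := h'.index_commutator_of_normalizer_eq hd2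
      have hnd := h'.not_dvd_card_commutator hd2
      have hmul := Subgroup.relIndex_mul_index hc
      rw [hi] at hmul
      rcases (Nat.dvd_prime h.prime).1 (Dvd.intro_left _ hmul) with h1 | h1
      · exact index_eq_one.1 h1
      · rw [h1] at hmul
        have h2 : (commutator (commutator G)).relIndex L = 1 :=
          Nat.eq_of_mul_eq_mul_right h.prime.pos (by rw [hmul, one_mul])
        exact absurd (hd.trans (card_dvd_of_le (relIndex_eq_one.1 h2))) hnd
  · left
    have h1 : L ≤ pPrimeCore p (commutator G) :=
      le_pPrimeCore hL ((Nat.Prime.coprime_iff_not_dvd h.prime).2 hd).symm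
    intro u hu
    rw [mem_subgroupOf]
    exact pPrimeCore_normal_subgroup_le (commutator G) ⟨u, h1 hu, rfl⟩

theorem isSimpleGroup_quotient [Finite G] (h : SC p x)
    (hN : normalizer (zpowers x : Set G) ≠ zpowers x)
    (hn : ((pPrimeCore p G).subgroupOf (commutator G)).Normal) :
    IsSimpleGroup (↥(commutator G) ⧸ (pPrimeCore p G).subgroupOf (commutator G)) := by
  have hx : x ∈ commutator G := h.zpowers_le_commutator hN (mem_zpowers x)
  have hnt : Nontrivial (↥(commutator G) ⧸ (pPrimeCore p G).subgroupOf (commutator G)) := by
    rw [QuotientGroup.nontrivial_iff]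
    intro htop
    exact h.not_mem_of_not_dvd _ h.not_dvd_card_pPrimeCore (subgroupOf_eq_top.1 htop hx)
  refine ⟨fun L hL => ?_⟩
  have hs := QuotientGroup.mk'_surjective ((pPrimeCore p G).subgroupOf (commutator G))
  rcases h.normal_subgroup_commutator hx
    (L.comap (QuotientGroup.mk' ((pPrimeCore p G).subgroupOf (commutator G))))
    (hL.comap _) with h1 | h1
  · left
    rw [← map_comap_eq_self_of_surjective hs L, eq_bot_iff]
    calc _ ≤ map (QuotientGroup.mk' ((pPrimeCore p G).subgroupOf (commutator G)))
          ((pPrimeCore p G).subgroupOf (commutator G)) := map_mono h1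
      _ = ⊥ := QuotientGroup.map_mk'_self _
  · right
    rw [← map_comap_eq_self_of_surjective hs L, h1, ← MonoidHom.range_eq_map,
      MonoidHom.range_eq_top.2 hs]

end SC

end Cfsg.Agent.Lib.Helper75
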