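import Mathlib
import Cfsg.Agent.Lib.Helper75.SelfCent3

/-!
# Groups with a self-centralizing element of prime order, V (helper75)

Normal subgroups of order `|G : N_G(P)|`.
-/

set_option autoImplicit false

namespace Cfsg.Agent.Lib.Helper75

open Subgroup
open scoped commutatorElement

variable {G : Type*} [Group G] {p : ℕ} {x : G}

namespace SC

theorem card_commutator_of_normalizer_eq [Finite G] (h : SC p x)
    (hN : normalizer (zpowers x : Set G) = zpowers x) :
    Nat.card (commutator G) = (normalizer (zpowers x : Set G)).index := by
  have h1 := Subgroup.card_mul_index (commutator G)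
  have h2 := Subgroup.card_mul_index (normalizer (zpowers x : Set G))
  rw [h.index_commutator_of_normalizer_eq hN] at h1
  have h3 : Nat.card (normalizer (zpowers x : Set G)) = p := by
    rw [hN, h.card_zpowers]
  rw [h3, ← h1, mul_comm] at h2
  exact (Nat.eq_of_mul_eq_mul_right h.prime.pos h2).symm

theorem card_zpowers_mul_relIndex (h : SC p x) :
    p * (zpowers x).relIndex (normalizer (zpowers x : Set G)) =
      Nat.card (normalizer (zpowers x : Set G)) := by
  have := Subgroup.relIndex_mul_relIndex ⊥ (zpowers x) (normalizer (zpowers x : Set G)) bot_le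
    zpowers_le_normalizer
  rwa [Subgroup.relIndex_bot_left, Subgroup.relIndex_bot_left, h.card_zpowers] at this

theorem card_of_derived_ne [Finite G] (h : SC p x)
    (hN : normalizer (zpowers x : Set G) ≠ zpowers x)
    (hne : ⁅commutator G, commutator G⁆ ≠ commutator G) :
    Nat.card (⁅commutator G, commutator G⁆ : Subgroup G) = (normalizer (zpowers x : Set G)).index ∧
      Nat.card (commutator G) = p * (normalizer (zpowers x : Set G)).index := by
  have hle := h.zpowers_le_commutator hN
  have hx : x ∈ commutator G := hle (mem_zpowers x)
  have h' := h.subgroup hx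
  have hd2 := (h.derived_dichotomy hx).resolve_left hne
  have hi := h'.index_commutator_of_normalizer_eq hd2
  have hc1 := Subgroup.card_mul_index (commutator (commutator G))
  rw [hi] at hc1
  have hc2 : Nat.card (⁅commutator G, commutator G⁆ : Subgroup G) = Nat.card (commutator (commutator G)) := by
    rw [← map_subtype_commutator, card_map_of_injective (commutator G).subtype_injective]
  have hinf : commutator G ⊓ normalizer (zpowers x : Set G) = zpowers x := by
    apply le_antisymm
    · rintro u ⟨hu1, hu2⟩
      have : (⟨u, hu1⟩ : commutator G) ∈
          normalizer (zpowers (⟨x, hx⟩ : commutator G) : Set (commutator G)) :=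
        (h.mem_normalizer_subtype hx ⟨u, hu1⟩).2 hu2
      rw [hd2, mem_zpowers_subtype] at this
      exact this
    · exact le_inf hle zpowers_le_normalizer
  have hidx : (commutator G).index = (zpowers x).relIndex (normalizer (zpowers x : Set G)) := by
    rw [h.index_eq_relIndex_normalizer _ hle, ← Subgroup.inf_relIndex_right, hinf]
  have hG1 := Subgroup.card_mul_index (commutator G)
  have hG2 := Subgroup.card_mul_index (normalizer (zpowers x : Set G))
  rw [← h.card_zpowers_mul_relIndex, ← hG1, hidx] at hG2
  have hH : Nat.card (commutator G) = p * (normalizer (zpowers x : Set G)).index := by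
    apply Nat.eq_of_mul_eq_mul_right (relIndex_pos (x := x))
    rw [← hG2]; ring
  refine ⟨?_, hH⟩
  rw [hc2]
  apply Nat.eq_of_mul_eq_mul_right h.prime.pos
  rw [hc1, hH, mul_comm]

end SC

end Cfsg.Agent.Lib.Helper75
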